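import Cfsg.Agent.Lib.PcX.Basic

/-! A collector for the rules among the letters above a bound, and the existence theorem. -/

set_option autoImplicit false

namespace Cfsg.Agent.PcX

open Cfsg.Agent.CG Cfsg.Agent.Mult Subgroup

/-- Collect the word `S` into the collected word `C`. -/
noncomputable def cl (b mb n1 T ew em lo fuel C S : ℕ) (k : ℕ → Bool) : Bool :=
  Nat.rec (motive := fun _ => ℕ → ℕ → Bool) (fun _ _ => false)
    (fun _ ih C S => Bool.rec (motive := fun _ => Bool)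
      (force (Nat.land S mb) fun i => force (Nat.land C mb) fun j =>
        Bool.rec (motive := fun _ => Bool)
          (band (blt lo i) (band (blt j n1) (force (look em T (Nat.mul ew (Nat.add (Nat.mul j n1) i))) fun e =>
            force (Nat.shiftRight C b) fun C' =>
            force (Nat.add (Nat.shiftLeft (Nat.shiftRight S b) (Nat.land e 1023)) (Nat.shiftRight e 10)) fun S' =>
              Bool.rec (motive := fun _ => Bool) (force (Nat.add (Nat.shiftLeft S' b) i) fun S'' => ih C' S'')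
                (ih C' S') (Nat.beq i j))))
          (force (Nat.add (Nat.shiftLeft C b) i) fun C' => force (Nat.shiftRight S b) fun S' => ih C' S')
          (blt j i))
      (k C) (Nat.beq S 0)) fuel C S

/-- Collect a list of words. -/
noncomputable def clL (cf : ℕ → ℕ → (ℕ → Bool) → Bool) (ws : List ℕ) (C : ℕ) (k : ℕ → Bool) : Bool :=
  List.rec (motive := fun _ => ℕ → Bool) (fun C => k C) (fun u _ ih C => force u fun u => cf C u ih) ws C

/-- Two lists of words have the same normal form. -/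
noncomputable def eqC (cf : ℕ → ℕ → (ℕ → Bool) → Bool) (u v : List ℕ) : Bool :=
  clL cf u 0 fun C => clL cf v 0 fun C' => Nat.beq C C'

/-- The collector of a table. -/
noncomputable def Tb.wc (R : Tb) (lo : ℕ) (k : (ℕ → ℕ → (ℕ → Bool) → Bool) → Bool) : Bool :=
  force R.b fun b => force (msk b) fun mb => force R.n1 fun n1 => force R.ew fun ew => force (msk ew) fun em =>
    force lo fun lo => k (cl b mb n1 R.T ew em lo 1000)

section
variable {G H : Type*} [Group G] [Group H] {R : Tb} {y : ℕ → G}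

/-- A correct collector. -/
def ClOK (y : ℕ → G) (b : ℕ) (cf : ℕ → ℕ → (ℕ → Bool) → Bool) : Prop :=
  ∀ C S k, cf C S k = true → ∃ C', evR y b C * evN y b S = evR y b C' ∧ k C' = true

theorem cl_ok (hF : R.Fmt) {lo : ℕ} (h0 : y 0 = 1) (hR : Rel R (lo < ·) y) (fuel : ℕ) :
    ClOK y R.b (cl R.b (msk R.b) R.n1 R.T R.ew (msk R.ew) lo fuel) := by
  have hb := hF.hb
  have happ : ∀ j i, i ≤ j → j < R.n1 → ∀ S, evN y R.b (S * 2 ^ R.ln j i + R.wd j i) =
      evN y R.b (R.wd j i) * evN y R.b S := by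
    intro j i h1 h2 S
    obtain ⟨h3, h4⟩ := hF.len j i h1 h2
    obtain ⟨l, hl⟩ := Nat.dvd_of_mod_eq_zero h3
    rw [hl] at h4 ⊢
    exact evN_append hb h0 S l _ h4
  induction fuel with
  | zero => intro C S k h; exact absurd h (by simp [cl])
  | succ fuel ih =>
    intro C S k h
    set cf := cl R.b (msk R.b) R.n1 R.T R.ew (msk R.ew) lo fuel with hcf
    have h : Bool.rec (motive := fun _ => Bool)
      (force (Nat.land S (msk R.b)) fun i => force (Nat.land C (msk R.b)) fun j =>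
        Bool.rec (motive := fun _ => Bool)
          (band (blt lo i) (band (blt j R.n1) (force (look (msk R.ew) R.T (Nat.mul R.ew (Nat.add (Nat.mul j R.n1) i)))
            fun e => force (Nat.shiftRight C R.b) fun C' =>
            force (Nat.add (Nat.shiftLeft (Nat.shiftRight S R.b) (Nat.land e 1023)) (Nat.shiftRight e 10)) fun S' =>
              Bool.rec (motive := fun _ => Bool) (force (Nat.add (Nat.shiftLeft S' R.b) i) fun S'' => cf C' S'' k)
                (cf C' S' k) (Nat.beq i j))))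
          (force (Nat.add (Nat.shiftLeft C R.b) i) fun C' => force (Nat.shiftRight S R.b) fun S' => cf C' S' k)
          (blt j i))
      (k C) (Nat.beq S 0) = true := h
    simp only [force_eq] at h
    cases hS : Nat.beq S 0
    swap
    · rw [hS] at h
      exact ⟨C, by rw [(beq_iff _ _).mp hS, evN_zero, mul_one], h⟩
    rw [hS] at h
    have hi : S % 2 ^ R.b < 2 ^ R.b := Nat.mod_lt _ (by positivity)
    simp only [land_msk S, land_msk C, shr_eq S, shr_eq C, shl_eq C] at h
    rw [evN_eq hb h0 S]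
    cases hij : blt (C % 2 ^ R.b) (S % 2 ^ R.b) <;> rw [hij] at h
    · obtain ⟨h1, h⟩ := (band_eq _ _).mp h
      obtain ⟨h2, h⟩ := (band_eq _ _).mp h
      rw [blt_iff] at h1 h2
      have h3 : S % 2 ^ R.b ≤ C % 2 ^ R.b := not_lt.mp fun e => by simp [(blt_iff _ _).mpr e] at hij
      have h5 := happ _ _ h3 h2 (S / 2 ^ R.b)
      rw [evR_eq hb h0 C, mul_assoc, ← mul_assoc (y _)]
      cases he : Nat.beq (S % 2 ^ R.b) (C % 2 ^ R.b) <;> rw [he] at h <;> obtain ⟨C', h6, h7⟩ := ih _ _ _ h <;>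
        refine ⟨C', Eq.trans ?_ h6, h7⟩
      · rw [hR.comm (h1.trans_le h3) h1 (lt_of_le_of_ne h3 ((beq_false_iff _ _).mp he)) h2, mul_assoc, ← h5,
          ← evN_cons hb h0 hi, ← shl_eq, ← shl_eq]
        rfl
      · rw [(beq_iff _ _).mp he] at h1 h5 ⊢
        rw [hR.sq h1 h2, ← h5, ← shl_eq]
        rfl
    · obtain ⟨C', h6, h7⟩ := ih _ _ _ h
      refine ⟨C', Eq.trans ?_ h6, h7⟩
      rw [← mul_assoc]
      exact congrArg (· * _) (evR_cons hb h0 hi C).symm

theorem ClOK.clL {b : ℕ} {cf : ℕ → ℕ → (ℕ → Bool) → Bool} (h : ClOK y b cf) {k : ℕ → Bool} :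
    ∀ (ws : List ℕ) (C : ℕ), clL cf ws C k = true → ∃ C', evR y b C * ev (evN y b) ws = evR y b C' ∧ k C' = true
  | [], C, hk => ⟨C, by simp, hk⟩
  | u :: ws, C, hk => by
    have hk : (force u fun u => cf C u fun C => PcX.clL cf ws C k) = true := hk
    rw [force_eq] at hk
    obtain ⟨C1, h2, h3⟩ := h _ _ _ hk
    obtain ⟨C2, h5, h6⟩ := ClOK.clL h ws _ h3
    exact ⟨C2, by rw [ev_cons, ← mul_assoc, h2, h5], h6⟩

theorem ClOK.eqC {b : ℕ} {cf : ℕ → ℕ → (ℕ → Bool) → Bool} (h : ClOK y b cf) {u v : List ℕ}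
    (e : eqC cf u v = true) : ev (evN y b) u = ev (evN y b) v := by
  obtain ⟨C, h1, h2⟩ := h.clL _ _ e
  obtain ⟨C', h3, h4⟩ := h.clL _ _ h2
  rw [evR_zero, one_mul] at h1 h3
  rw [h1, h3, (beq_iff _ _).mp h4]

theorem Tb.wc_ok (hF : R.Fmt) {lo : ℕ} (h0 : y 0 = 1) (hR : Rel R (lo < ·) y)
    {k : (ℕ → ℕ → (ℕ → Bool) → Bool) → Bool} (h : R.wc lo k = true) : ∃ cf, ClOK y R.b cf ∧ k cf = true := by
  simp only [Tb.wc, force_eq] at h
  exact ⟨_, cl_ok hF h0 hR 1000, h⟩

/-- The words `img c` satisfy the rules `(j, i)`, `i ≤ j`, among the letters of `s`. -/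
noncomputable def chkRow (cf : ℕ → ℕ → (ℕ → Bool) → Bool) (R : Tb) (s : ℕ → Bool) (img : ℕ → ℕ) (j : ℕ) : Bool :=
  bor (bnot (s j)) (force (img j) fun a => allLt (fun i => bor (bnot (s i)) (force (R.wd j i) fun u =>
    band (allL s (R.dg u)) (eqC cf [a, img i]
      (Bool.rec (motive := fun _ => List ℕ) (mapL img (R.dg u)) (img i :: mapL img (R.dg u)) (blt i j)))))
    (Nat.succ j))

theorem ev_mapL (b : ℕ) (img : ℕ → ℕ) (l : List ℕ) :
    ev (evN y b) (mapL img l) = ev (fun c => evN y b (img c)) l := by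
  rw [mapL_eq, ev, ev, List.map_map]; rfl

theorem rel_of_chk (hF : R.Fmt) {b : ℕ} {cf : ℕ → ℕ → (ℕ → Bool) → Bool} (hc : ClOK y b cf) {s : ℕ → Bool}
    {img : ℕ → ℕ} (h : ∀ j < R.n1, chkRow cf R s img j = true) :
    Cl R (s · = true) ∧ Rel R (s · = true) fun c => evN y b (img c) := by
  have key : ∀ j i, s j = true → s i = true → i ≤ j → j < R.n1 →
      (∀ c ∈ Nat.digits (2 ^ R.b) (R.wd j i), s c = true) ∧
        evN y b (img j) * evN y b (img i) = ev (fun c => evN y b (img c)) (R.rhs j i) := by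
    intro j i hj hi h1 h2
    have h3 := h j h2
    simp only [chkRow, bor_eq, bnot_eq, force_eq, allLt_iff, band_eq, allL_iff] at h3
    obtain ⟨h4, h5⟩ := ((h3.resolve_left (by simp [hj])) i (Nat.lt_succ_of_le h1)).resolve_left (by simp [hi])
    rw [Tb.dg_eq hF.hb (hF.ok j i h1 h2)] at h4 h5
    refine ⟨h4, ?_⟩
    have h6 := hc.eqC h5
    rw [ev_cons, ev_singleton] at h6
    rw [h6, Tb.rhs]
    split_ifs with h7
    · rw [(blt_iff _ _).mpr h7]
      exact ((ev_cons (evN y b) _ _).trans (congrArg _ (ev_mapL _ _ _))).trans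
        (ev_cons (fun c => evN y b (img c)) _ _).symm
    · rw [show blt i j = false by rw [← Bool.not_eq_true, blt_iff]; exact h7]
      exact ev_mapL _ _ _
  exact ⟨fun j i a b c d => (key j i a b c d).1, fun j i a b c d => (key j i a b c d).2⟩

theorem map_evN_of (φ : G →* H) {y' : ℕ → H} {b u : ℕ} (h : ∀ c ∈ Nat.digits (2 ^ b) u, φ (y c) = y' c) :
    φ (evN y b u) = evN y' b u := (map_ev _ _ _).trans (ev_congr _ h)

end

/-- The extension of a group by an element with prescribed action and square. -/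
theorem exists_ext {N : Type} [Group N] (α : N →* N) (t : N) (h1 : α t = t) (h2 : ∀ a, t * α (α a) = a * t) :
    ∃ (M : Type) (_ : Group M) (L : N →* M) (Y : M), Function.Injective L ∧ Y ∉ L.range ∧
      (∀ a, L a * Y = Y * L (α a)) ∧ Y * Y = L t := by
  let L : N →* Equiv.Perm (Bool × N) := MonoidHom.toHomPerm
    { toFun a := fun p => (p.1, cond p.1 (α a) a * p.2)
      map_one' := funext fun ⟨e, p⟩ => by cases e <;> simp [Function.End.one_def]
      map_mul' a b := funext fun ⟨e, p⟩ => by cases e <;> exact Prod.ext rfl (by simp [mul_assoc]; rfl) }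
  let Y : Equiv.Perm (Bool × N) :=
    { toFun p := (!p.1, cond p.1 t 1 * p.2)
      invFun p := (!p.1, cond p.1 1 t⁻¹ * p.2)
      left_inv := fun ⟨e, p⟩ => by cases e <;> simp
      right_inv := fun ⟨e, p⟩ => by cases e <;> simp }
  have hL : ∀ a p, L a p = (p.1, cond p.1 (α a) a * p.2) := fun _ _ => rfl
  have hY : ∀ p, Y p = (!p.1, cond p.1 t 1 * p.2) := fun _ => rfl
  refine ⟨_, inferInstance, L, Y, fun a b e => ?_, ?_, fun a => Equiv.ext fun ⟨e, p⟩ => ?_,
    Equiv.ext fun ⟨e, p⟩ => ?_⟩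
  · simpa [hL] using congrArg (fun f => f (false, 1)) e
  · rintro ⟨a, e⟩
    simpa [hL, hY] using congrArg (fun f => f (false, 1)) e
  · cases e <;> simp [hL, hY, ← mul_assoc, h2]
  · cases e <;> simp [hL, hY, h1]

/-- The consistency check for the letter `k`. -/
noncomputable def Tb.chkStage (R : Tb) (k : ℕ) : Bool :=
  R.wc k fun cf => force (R.wd k k) fun t => band (eqC cf (mapL (R.wd · k) (R.dg t)) [t])
    (allLt (fun j => band (chkRow cf R (blt k) (R.wd · k) j)
      (bor (bnot (blt k j)) (eqC cf (t :: mapL (R.wd · k) (R.dg (R.wd j k))) [j, t]))) R.n1)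

/-- A group in which the rules among the letters above `k` hold with a strict series. -/
def Tb.Ex (R : Tb) (k : ℕ) : Prop :=
  ∃ (N : Type) (_ : Group N) (y : ℕ → N), y 0 = 1 ∧ Rel R (k < ·) y ∧ Strict (k < ·) y R.n1 R.n1 ∧
    C (k < ·) y R.n1 0 = ⊤

variable {R : Tb}

theorem Tb.Fmt.cl (hF : R.Fmt) (k : ℕ) : Cl R (k < ·) := fun j i _ hi h1 h2 c hc => hi.trans (hF.lt j i h1 h2 c hc).1

theorem Tb.ex_of (hF : R.Fmt) {k : ℕ} {N : Type} [Group N] {y : ℕ → N} (h1 : Rel R (k < ·) y)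
    (h2 : Strict (k < ·) y R.n1 R.n1) : R.Ex k := by
  let A := C (k < ·) y R.n1 0
  let z : ℕ → A := fun c => if h : k < c ∧ c < R.n1 then ⟨y c, mem_C h.1 (Nat.zero_le c) h.2⟩ else 1
  have e : ∀ c, k < c → c < R.n1 → A.subtype (z c) = y c := fun c a b => by simp [z, a, b]
  refine ⟨A, inferInstance, z, by simp [z], h1.of_map hF (hF.cl k) _ A.subtype_injective e,
    fun c a b hm => h2 c a b ?_, ?_⟩
  · rw [← map_C _ e, ← e c b a]; exact mem_map_of_mem _ hm
  · exact map_injective A.subtype_injective (by rw [map_C _ e, ← MonoidHom.range_eq_map, range_subtype])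

theorem Tb.Ex.step (hF : R.Fmt) {k : ℕ} (hk : k + 1 < R.n1) (hc : R.chkStage (k + 1) = true) (h : R.Ex (k + 1)) :
    R.Ex k := by
  obtain ⟨N, _, y, h0, h1, h2, h3⟩ := h
  obtain ⟨cf, hcf, hc⟩ := Tb.wc_ok hF h0 h1 hc
  simp only [force_eq, band_eq, allLt_iff, bor_eq, bnot_eq] at hc
  obtain ⟨c1, c2⟩ := hc
  have h4 := (rel_of_chk hF hcf fun j hj => (c2 j hj).1).2
  simp only [blt_iff] at h4
  obtain ⟨α, hα⟩ := h1.exists_hom hF (hF.cl _) h2 h3 h4
  have hw : ∀ j, k + 1 ≤ j → j < R.n1 → α (evN y R.b (R.wd j (k + 1))) =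
      ev (evN y R.b) (mapL (R.wd · (k + 1)) (R.dg (R.wd j (k + 1)))) := fun j a b => by
    rw [ev_mapL, Tb.dg_eq hF.hb (hF.ok _ _ a b)]
    exact map_evN_of α fun c hc => hα c (hF.lt _ _ a b c hc).1 (hF.lt _ _ a b c hc).2
  obtain ⟨M, _, L, Y, a1, a2, a3, a4⟩ := exists_ext α (evN y R.b (R.wd (k + 1) (k + 1)))
    (by rw [hw _ le_rfl hk, hcf.eqC c1, ev_singleton]) (fun a => by
      have : C (k + 1 < ·) y R.n1 0 ≤ ((MulAut.conj (evN y R.b (R.wd (k + 1) (k + 1)))).toMonoidHom.comp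
          (α.comp α)).eqLocus (MonoidHom.id N) := C_le fun j b _ d => by
        have := hcf.eqC ((c2 j d).2.resolve_left (by simp [(blt_iff _ _).mpr b]))
        rw [ev_cons, ← hw j b.le d, ← hα j b d, ev_cons, ev_singleton,
          evN_single hF.hb h0 (d.trans_le hF.hn)] at this
        exact mul_inv_eq_iff_eq_mul.mpr this
      exact mul_inv_eq_iff_eq_mul.mp (this (h3 ▸ mem_top a)))
  let z : ℕ → M := fun c => if c = k + 1 then Y else L (y c)
  have e : ∀ c, k + 1 < c → c < R.n1 → L (y c) = z c := fun c a _ => (if_neg a.ne').symm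
  have e1 : z (k + 1) = Y := if_pos rfl
  have e2 : ∀ j, k + 1 ≤ j → j < R.n1 → L (evN y R.b (R.wd j (k + 1))) = evN z R.b (R.wd j (k + 1)) :=
    fun j a b => map_evN_of L fun c hc => e c (hF.lt _ _ a b c hc).1 (hF.lt _ _ a b c hc).2
  have e3 : ∀ m, k + 1 < m → C (k < ·) z R.n1 m = (C (k + 1 < ·) y R.n1 m).map L := fun m hm => by
    rw [map_C _ e]
    exact le_antisymm (C_le fun c _ a b => mem_C (by omega) a b) (C_le fun c _ a b => mem_C (by omega) a b)
  refine Tb.ex_of hF (y := z) (fun j i hj hi b1 b2 => ?_) fun c b1 b2 hm => ?_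
  · rcases (Nat.succ_le_of_lt hi).eq_or_lt with rfl | hi
    · rcases b1.eq_or_lt with rfl | b1
      · rw [e1, a4, e2 _ le_rfl b2, Tb.rhs, if_neg (lt_irrefl _)]; rfl
      · rw [← e j b1 b2, e1, a3, hα j b1 b2, e2 j b1.le b2, Tb.rhs, if_pos b1, ← e1]
        exact (ev_cons _ _ _).symm
    · exact h1.map hF (hF.cl _) L e j i (hi.trans_le b1) hi b1 b2
  · rw [e3 _ (by omega)] at hm
    rcases (Nat.succ_le_of_lt b2).eq_or_lt with rfl | b2
    · exact a2 (map_le_range _ _ (e1 ▸ hm))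
    · rw [← e c b2 b1, mem_map_iff_mem a1] at hm
      exact h2 c b1 b2 hm

theorem Tb.ex_zero (hF : R.Fmt) (hc : ∀ k, 0 < k → k < R.n1 → R.chkStage k = true) : R.Ex 0 := by
  suffices ∀ m k, k + m = R.n1 → R.Ex k from this R.n1 0 (zero_add _)
  intro m
  induction m with
  | zero => exact fun k hk => Tb.ex_of hF (N := PUnit) (y := 1) (fun _ _ _ _ _ _ => rfl) fun c a b => by omega
  | succ m ih =>
    intro k hk
    by_cases h : k + 1 < R.n1
    · exact (ih (k + 1) (by omega)).step hF h (hc _ (by omega) h)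
    · exact Tb.ex_of hF (N := PUnit) (y := 1) (fun _ _ _ _ _ _ => rfl) fun c a b => by omega

end Cfsg.Agent.PcX
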