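import Cfsg.Agent.Lib.PcX.Cores
import Cfsg.Agent.Lib.PcX.Col

/-! Invariance of the commutator pairing of a central extension of a subgroup under conjugation. -/

set_option autoImplicit false

namespace Cfsg.Agent.PcX

open Cfsg.Agent.Mult Subgroup
open scoped commutatorElement

variable {Γ P : Type*} [Group Γ] [Group P] {p : P →* Γ} {g g' : Γ}

theorem Inv.inv (h : Inv p g) : Inv p g⁻¹ := fun X Y X' Y' e1 e2 e3 =>
  (h X' Y' X Y (by rw [e1]; group) (by rw [e2]; group) (by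
    rw [e1, e2]; exact e3.map (MulAut.conj g⁻¹))).symm

theorem Inv.mul (h : Inv p g) (h' : Inv p g')
    (e : ∀ x ∈ p.range, g * g' * x * (g * g')⁻¹ ∈ p.range → g' * x * g'⁻¹ ∈ p.range) : Inv p (g * g') := by
  intro X Y X' Y' e1 e2 e3
  obtain ⟨X'', a1⟩ := e _ ⟨X, rfl⟩ ⟨X', e1⟩
  obtain ⟨Y'', a2⟩ := e _ ⟨Y, rfl⟩ ⟨Y', e2⟩
  exact (h X'' Y'' X' Y' (by rw [e1, a1]; group) (by rw [e2, a2]; group)
    (by rw [a1, a2]; exact e3.map (MulAut.conj g'))).trans (h' X Y X'' Y'' a1 a2 e3)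

theorem inv_of_mem (hc : p.ker ≤ center P) (hg : g ∈ p.range) : Inv p g := by
  obtain ⟨Z, rfl⟩ := hg
  intro X Y X' Y' e1 e2 e3
  have h1 : ⁅X, Y⁆ ∈ p.ker := by
    rw [MonoidHom.mem_ker, map_commutatorElement]; exact commutatorElement_eq_one_iff_commute.mpr e3
  rw [commutator_congr hc (x' := MulAut.conj Z X) (y' := MulAut.conj Z Y) (by simpa using e1) (by simpa using e2),
    ← map_commutatorElement, MulAut.conj_apply, mem_center_iff.mp (hc h1), mul_inv_cancel_right]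

theorem inv_of_rel (hc : p.ker ≤ center P) {R : Tb} {S : ℕ → Prop} {y y' : ℕ → P} {v : ℕ → Γ} (hF : R.Fmt)
    (hC : Cl R S) (h : Rel R S y) (h' : Rel R S y') (e : ∀ c, S c → c < R.n1 → p (y c) = v c)
    (e' : ∀ c, S c → c < R.n1 → p (y' c) = g * v c * g⁻¹) {n0 : ℕ} (hs : Strict S v n0 R.n1)
    (h0 : ∀ c, S c → n0 ≤ c → c < R.n1 → y' c = y c)
    (hS : ∀ x ∈ p.range, g * x * g⁻¹ ∈ p.range → x ∈ C S v R.n1 0) : Inv p g := by
  set Δ := C S (fun c => (y c, y' c)) R.n1 0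
  have h1 : Δ ≤ (p.comp (.snd P P)).eqLocus ((MulAut.conj g).toMonoidHom.comp (p.comp (.fst P P))) :=
    C_le fun c a _ b => (e' c a b).trans (by simp [e c a b])
  have h2 : ∀ X X', p X' = g * p X * g⁻¹ → ∃ δ ∈ Δ, p X = p δ.1 ∧ p X' = p δ.2 := fun X X' a => by
    have := hS _ ⟨X, rfl⟩ ⟨X', a⟩
    rw [← map_C (y := fun c => (y c, y' c)) (p.comp (.fst P P)) e] at this
    obtain ⟨δ, b, c⟩ := this
    exact ⟨δ, b, c.symm, by rw [a, ← c]; exact (h1 b).symm⟩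
  intro X Y X' Y' e1 e2 e3
  obtain ⟨δ, a1, a2, a3⟩ := h2 X X' e1
  obtain ⟨ε, b1, b2, b3⟩ := h2 Y Y' e2
  have h3 := (h.prod h').mem_of_ker hF hC (p.comp (.fst P P)) e hs (g := ⁅δ, ε⁆)
    (mul_mem (mul_mem (mul_mem a1 b1) (inv_mem a1)) (inv_mem b1)) (by
      rw [map_commutatorElement, commutatorElement_eq_one_iff_commute]
      exact a2 ▸ b2 ▸ e3)
  rw [commutator_congr hc a2 b2, commutator_congr hc a3 b3]
  exact (C_le (A := (MonoidHom.snd P P).eqLocus (.fst P P)) h0 h3 :)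

end Cfsg.Agent.PcX
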