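import Cfsg.Agent.Lib.Mult.Cov
import Cfsg.Agent.Lib.SL2.Mult2

/-! Combining the parts of a Schur multiplier for different primes. -/

set_option autoImplicit false

namespace Cfsg.Agent.PcX

open Cfsg.Agent.Mult Subgroup

universe u

variable {E G Γ : Type u} [Group E] [Group G] [Group Γ]

/-- The fibre product. -/
def fib (σ : Γ →* G) (π : E →* G) : Subgroup (Γ × E) := (σ.comp (.fst Γ E)).eqLocus (π.comp (.snd Γ E))

/-- The first projection. -/
def fib1 (σ : Γ →* G) (π : E →* G) : fib σ π →* Γ := (MonoidHom.fst Γ E).comp (fib σ π).subtype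

/-- The second projection. -/
def fib2 (σ : Γ →* G) (π : E →* G) : fib σ π →* E := (MonoidHom.snd Γ E).comp (fib σ π).subtype

variable {σ : Γ →* G} {π : E →* G}

theorem fib_eq (x : fib σ π) : σ (fib1 σ π x) = π (fib2 σ π x) := x.2

theorem fib_ext {x y : fib σ π} (h1 : fib1 σ π x = fib1 σ π y) (h2 : fib2 σ π x = fib2 σ π y) : x = y :=
  Subtype.ext (Prod.ext h1 h2)

theorem map_fib1 (hπ : Function.Surjective π) : (commutator (fib σ π)).map (fib1 σ π) = commutator Γ := by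
  rw [commutator_def, map_commutator, map_top_of_surjective _ fun g =>
    (hπ (σ g)).elim fun e he => ⟨⟨(g, e), he.symm⟩, rfl⟩]; rfl

theorem map_fib2 (hσ : Function.Surjective σ) : (commutator (fib σ π)).map (fib2 σ π) = commutator E := by
  rw [commutator_def, map_commutator, map_top_of_surjective _ fun e =>
    (hσ (π e)).elim fun g he => ⟨⟨(g, e), he⟩, rfl⟩]; rfl

theorem exists_lift [Finite E] [Finite Γ] (hE : commutator E = ⊤) {m : ℕ}
    (h : ∀ (P : Type u) [Group P] [Finite P] (τ : P →* E), IsStemExtension τ → (∀ z ∈ τ.ker, z ^ m = 1) → τ.ker = ⊥)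
    (hπ : Function.Surjective π) (hσ : IsStemExtension σ) (hm : ∀ z ∈ σ.ker, z ^ m = 1) :
    ∃ ψ : E →* Γ, (∀ x, σ (ψ x) = π x) ∧ σ.ker ≤ π.ker.map ψ := by
  let P := fib σ π
  have hk : ∀ z ∈ (fib2 σ π).ker, fib1 σ π z ∈ σ.ker := fun z hz => by
    rw [MonoidHom.mem_ker, fib_eq, MonoidHom.mem_ker.mp hz, map_one]
  have hc : (fib2 σ π).ker ≤ center P := fun z hz => mem_center_iff.mpr fun y =>
    fib_ext (by simpa using mem_center_iff.1 (hσ.2.1 (hk z hz)) _) (by simp [MonoidHom.mem_ker.mp hz])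
  let τ : commutator P →* E := (fib2 σ π).comp (commutator P).subtype
  have hτs : Function.Surjective τ := fun e => by
    obtain ⟨x, hx, rfl⟩ : e ∈ (commutator P).map (fib2 σ π) := by rw [map_fib2 hσ.1, hE]; trivial
    exact ⟨⟨x, hx⟩, rfl⟩
  have hperf : commutator P ≤ ⁅commutator P, commutator P⁆ := SL2.commutator_le_of_center_sup fun x => by
    obtain ⟨n, hn⟩ := hτs (fib2 σ π x)
    exact ⟨n, n.2, (n : P)⁻¹ * x, hc (by
      rw [MonoidHom.mem_ker, map_mul, map_inv, ← hn]; exact inv_mul_cancel _), by group⟩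
  have hτ : IsStemExtension τ := by
    refine ⟨hτs, fun z hz => mem_center_iff.mpr fun y => Subtype.ext (mem_center_iff.1 (hc hz) y), fun z _ => ?_⟩
    have := hperf z.2
    rw [← map_subtype_commutator] at this
    obtain ⟨y, hy, e⟩ := this
    rwa [← Subtype.ext e]
  have hτi : Function.Injective τ := (MonoidHom.ker_eq_bot_iff τ).1 (h _ τ hτ fun z hz => Subtype.ext
    (fib_ext (by simpa using hm _ (hk _ hz)) (by simp [show fib2 σ π z = 1 from hz])))
  let e := MulEquiv.ofBijective τ ⟨hτi, hτs⟩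
  let ψ : E →* Γ := ((fib1 σ π).comp (commutator P).subtype).comp e.symm.toMonoidHom
  have hψ : ∀ y, ψ (e y) = fib1 σ π y := fun y => by simp [ψ]
  refine ⟨ψ, fun x => ?_, fun z hz => ?_⟩
  · obtain ⟨y, rfl⟩ := e.surjective x
    exact hψ y ▸ fib_eq y.1
  · obtain ⟨x, hx, rfl⟩ : z ∈ (commutator P).map (fib1 σ π) := map_fib1 (σ := σ) hπ ▸ hσ.2.2 hz
    exact ⟨e ⟨x, hx⟩, (fib_eq x).symm.trans hz, hψ _⟩

theorem mb_of [Finite E] (hE : commutator E = ⊤) (h : ∀ (P : Type u) [Group P] [Finite P] (τ : P →* E),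
    IsStemExtension τ → ∀ m, Odd m → (∀ z ∈ τ.ker, z ^ m = 1) → τ.ker = ⊥) (hπ : Function.Surjective π) {c : E}
    (hc : π.ker = zpowers c) (h3 : c ^ 3 = 1) {ms : List ℕ} (h2 : PB G 2 ms) : MB G (3 :: ms) := by
  have : Finite G := .of_surjective π hπ
  have h1 : ∀ (Γ : Type u) [Group Γ] [Finite Γ] (σ : Γ →* G), IsStemExtension σ → ∀ m, Odd m →
      (∀ z ∈ σ.ker, z ^ m = 1) → ∃ k ∈ σ.ker, k ^ 3 = 1 ∧ σ.ker ≤ zpowers k := fun Γ _ _ σ hσ m a b => by
    obtain ⟨ψ, c1, c2⟩ := exists_lift hE (fun P _ _ τ hτ => h P τ hτ m a) hπ hσ b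
    exact ⟨ψ c, (c1 c).trans (hc.ge (mem_zpowers c)), by rw [← map_pow, h3, map_one],
      by rwa [hc, MonoidHom.map_zpowers] at c2⟩
  have h4 : PB G 3 [3] := PB.of_exponent (r := 3) Nat.prime_three (by simp) fun Γ _ _ σ hσ a => by
    obtain ⟨k, b1, b2, b3⟩ := h1 Γ σ hσ _ (by decide) a
    exact ⟨[k], .cons ⟨b1, b2⟩ .nil, b3.trans (zpowers_le.mpr (subset_closure (by simp)))⟩
  have h5 : ∀ ps : List ℕ, (∀ p ∈ ps, p.Prime ∧ 3 < p) → PBs G ps [] := fun ps hps => by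
    induction ps with
    | nil => exact PBs.nil
    | cons p ps ih =>
      obtain ⟨a1, a2⟩ := hps p (by simp)
      refine PBs.cons (ms := []) (PB.of_exponent (r := 1) a1 (by simp) fun Γ _ _ σ hσ a => ?_)
        (ih fun q hq => hps q (by simp [hq]))
      obtain ⟨k, b1, b2, b3⟩ := h1 Γ σ hσ _ (by simpa using a1.odd_of_ne_two (by omega)) a
      have := pow_gcd_eq_one.mpr ⟨a k b1, b2⟩
      rw [mul_one, (Nat.coprime_primes a1 Nat.prime_three).mpr a2.ne', pow_one] at this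
      exact ⟨[], .nil, b3.trans (zpowers_le.mpr (this ▸ one_mem _))⟩
  have h6 := PBs.cons h4 (PBs.cons h2 (h5 ((Nat.card G).primeFactorsList.filter (3 < ·)) fun p hp => by
    rw [List.mem_filter] at hp
    exact ⟨Nat.prime_of_mem_primeFactorsList hp.1, by simpa using hp.2⟩))
  rw [List.append_nil] at h6
  refine h6.mb rfl fun p a b => ?_
  have := a.two_le
  have := (Nat.mem_primeFactorsList Nat.card_pos.ne').mpr ⟨a, b⟩
  simp only [List.mem_cons, List.mem_filter, this, decide_eq_true_eq, true_and]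
  omega

theorem ex_prod {A B : Type*} [CommGroup A] [CommGroup B] (h : EX G A) (h' : EX G B) {m n : ℕ} (hmn : m.Coprime n)
    (hA : ∀ a : A, a ^ m = 1) (hB : ∀ b : B, b ^ n = 1) : EX G (A × B) := by
  obtain ⟨Γ, _, _, σ, hσ, ⟨e⟩⟩ := h
  obtain ⟨E, _, _, π, hπ, ⟨e'⟩⟩ := h'
  have h1 : ∀ z ∈ σ.ker, z ^ m = 1 := fun z hz =>
    congrArg Subtype.val (e.injective (a₁ := ⟨z, hz⟩ ^ m) (a₂ := 1) (by rw [map_pow, hA, map_one]))
  have h2 : ∀ z ∈ π.ker, z ^ n = 1 := fun z hz =>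
    congrArg Subtype.val (e'.injective (a₁ := ⟨z, hz⟩ ^ n) (a₂ := 1) (by rw [map_pow, hB, map_one]))
  have h3 : ∀ z ∈ (σ.comp (fib1 σ π)).ker, fib2 σ π z ∈ π.ker := fun z hz => (fib_eq z).symm.trans hz
  refine ⟨fib σ π, inferInstance, inferInstance, σ.comp (fib1 σ π), ⟨fun g => ?_, fun z hz => ?_, fun z hz => ?_⟩,
    ⟨MulEquiv.trans ?_ (e.prodCongr e')⟩⟩
  · obtain ⟨a, ha⟩ := hσ.1 g
    obtain ⟨b, hb⟩ := hπ.1 g
    exact ⟨⟨(a, b), ha.trans hb.symm⟩, ha⟩
  · exact mem_center_iff.mpr fun y => fib_ext (by simpa using mem_center_iff.1 (hσ.2.1 hz) _)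
      (by simpa using mem_center_iff.1 (hπ.2.1 (h3 z hz)) _)
  · obtain ⟨x, hx, a1⟩ : fib1 σ π z ∈ (commutator _).map (fib1 σ π) := map_fib1 (σ := σ) hπ.1 ▸ hσ.2.2 hz
    obtain ⟨y, hy, a2⟩ : fib2 σ π z ∈ (commutator _).map (fib2 σ π) := map_fib2 (π := π) hσ.1 ▸ hπ.2.2 (h3 z hz)
    rw [← Abelianization.ker_of] at hx hy ⊢
    have a3 : (x⁻¹ * z) ^ n = 1 := fib_ext (by simp [a1]) (by
      rw [map_pow, map_one]; exact h2 _ (h3 _ (by simp [a1])))
    have a4 : (y⁻¹ * z) ^ m = 1 := fib_ext (by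
      rw [map_pow, map_one]; exact h1 _ ((fib_eq _).trans (by simp [a2]))) (by simp [a2])
    have a5 : Abelianization.of z ^ m.gcd n = 1 := pow_gcd_eq_one.mpr
      ⟨by simpa [MonoidHom.mem_ker.mp hy] using congrArg Abelianization.of a4,
        by simpa [MonoidHom.mem_ker.mp hx] using congrArg Abelianization.of a3⟩
    rwa [hmn, pow_one] at a5
  · exact
      { toFun z := (⟨fib1 σ π z, z.2⟩, ⟨fib2 σ π z, h3 _ z.2⟩)
        invFun a := ⟨⟨(a.1, a.2), a.1.2.trans a.2.2.symm⟩, a.1.2⟩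
        left_inv _ := rfl
        right_inv _ := rfl
        map_mul' _ _ := rfl }

end Cfsg.Agent.PcX
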