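import Cfsg.Agent.Lib.Mult.Eng

/-! Power-commutator presentations with relative orders two: normal forms, homomorphisms, and the existence of the
group of a consistent presentation. -/

set_option autoImplicit false

namespace Cfsg.Agent.PcX

open Cfsg.Agent.CG Cfsg.Agent.Mult Subgroup

/-- A table of rules. -/
structure Tb where
  b : ℕ
  n1 : ℕ
  T : ℕ
  ew : ℕ
  fl : ℕ

namespace Tb
variable (R : Tb)

/-- The packed word of a rule. -/
noncomputable def wd (j i : ℕ) : ℕ := wdOf R.T R.ew (Nat.add (Nat.mul j R.n1) i)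

/-- The bit length of the word of a rule. -/
noncomputable def ln (j i : ℕ) : ℕ := lenOf R.T R.ew (Nat.add (Nat.mul j R.n1) i)

/-- The letters of a packed word. -/
noncomputable def dg (u : ℕ) : List ℕ := digs R.b (msk R.b) R.fl u

/-- The packed word has at most `fl` letters. -/
noncomputable def ok (u : ℕ) : Bool := Nat.beq (Nat.shiftRight u (Nat.mul R.b R.fl)) 0

/-- The right side of a rule. -/
def rhs (j i : ℕ) : List ℕ := (if i < j then [i] else []) ++ Nat.digits (2 ^ R.b) (wdOf R.T R.ew (j * R.n1 + i))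

/-- The format of the table. -/
noncomputable def chkFmt : Bool :=
  band (blt 0 R.b) (band (Nat.ble R.n1 (Nat.pow 2 R.b)) (allLt (fun j => allLt (fun i =>
    force (R.wd j i) fun u => force (R.ln j i) fun l => band (Nat.beq (Nat.mod l R.b) 0)
      (band (Nat.beq (Nat.shiftRight u l) 0) (band (R.ok u)
        (allL (fun c => band (blt i c) (blt c R.n1)) (R.dg u))))) (Nat.succ j)) R.n1))

/-- The format of the table. -/
structure Fmt : Prop where
  hb : 0 < R.b
  hn : R.n1 ≤ 2 ^ R.b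
  len : ∀ j i, i ≤ j → j < R.n1 → R.ln j i % R.b = 0 ∧ R.wd j i / 2 ^ R.ln j i = 0
  ok : ∀ j i, i ≤ j → j < R.n1 → R.ok (R.wd j i) = true
  lt : ∀ j i, i ≤ j → j < R.n1 → ∀ c ∈ Nat.digits (2 ^ R.b) (R.wd j i), i < c ∧ c < R.n1

variable {R}

theorem dg_eq (hb : 0 < R.b) {u : ℕ} (h : R.ok u = true) : R.dg u = Nat.digits (2 ^ R.b) u :=
  digs_eq hb _ _ ((beq_iff _ _).mp h)

theorem fmt_of (h : R.chkFmt = true) : R.Fmt := by
  simp only [chkFmt, band_eq, blt_iff, ble_iff, allLt_iff, force_eq, beq_iff, allL_iff] at h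
  obtain ⟨h1, h2, h3⟩ := h
  refine ⟨h1, h2, fun j i a1 a2 => ?_, fun j i a1 a2 => (h3 j a2 i (Nat.lt_succ_of_le a1)).2.2.1,
    fun j i a1 a2 => ?_⟩
  · obtain ⟨e1, e2, -⟩ := h3 j a2 i (Nat.lt_succ_of_le a1)
    exact ⟨e1, by rw [← shr_eq]; exact e2⟩
  · obtain ⟨-, -, e1, e2⟩ := h3 j a2 i (Nat.lt_succ_of_le a1)
    rwa [dg_eq h1 e1] at e2

end Tb

section rel
variable {G H : Type*} [Group G] [Group H] {R : Tb} {S : ℕ → Prop} {y : ℕ → G}

variable (R S y) in
/-- The rules among the letters of `S` hold. -/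
def Rel : Prop := ∀ j i, S j → S i → i ≤ j → j < R.n1 → y j * y i = ev y (R.rhs j i)

variable (R S) in
/-- The rules among the letters of `S` only use letters of `S`. -/
def Cl : Prop := ∀ j i, S j → S i → i ≤ j → j < R.n1 → ∀ c ∈ Nat.digits (2 ^ R.b) (R.wd j i), S c

variable (y S) in
/-- The subgroup generated by the letters of `S` from `k` on. -/
def C (n k : ℕ) : Subgroup G := closure (y '' {c | S c ∧ k ≤ c ∧ c < n})

variable (y S) in
/-- The series of the subgroups `C` is strict below `n0`. -/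
def Strict (n0 n : ℕ) : Prop := ∀ k < n0, S k → y k ∉ C S y n (k + 1)

theorem mem_C {n k c : ℕ} (h1 : S c) (h2 : k ≤ c) (h3 : c < n) : y c ∈ C S y n k :=
  subset_closure ⟨c, ⟨h1, h2, h3⟩, rfl⟩

theorem C_le {n k : ℕ} {A : Subgroup G} (h : ∀ c, S c → k ≤ c → c < n → y c ∈ A) : C S y n k ≤ A :=
  (closure_le _).mpr <| by rintro _ ⟨c, hc, rfl⟩; exact h c hc.1 hc.2.1 hc.2.2

theorem C_top (n : ℕ) : C S y n n = ⊥ := eq_bot_iff.mpr (C_le fun c _ h1 h2 => by omega)

theorem C_anti {n k k' : ℕ} (h : k ≤ k') : C S y n k' ≤ C S y n k := C_le fun _ a b c => mem_C a (h.trans b) c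

theorem map_C (f : G →* H) {y' : ℕ → H} {n : ℕ} (h : ∀ c, S c → c < n → f (y c) = y' c) (k : ℕ) :
    (C S y n k).map f = C S y' n k := by
  rw [C, MonoidHom.map_closure, Set.image_image]
  exact congrArg _ (Set.image_congr fun c hc => h c hc.1 hc.2.2)

theorem mem_rhs (hF : R.Fmt) (hC : Cl R S) {j i : ℕ} (hj : S j) (hi : S i) (h1 : i ≤ j) (h2 : j < R.n1) :
    ∀ c ∈ R.rhs j i, S c ∧ c < R.n1 := fun c hc => by
  rcases List.mem_append.mp hc with h | h
  · split_ifs at h
    · obtain rfl := List.mem_singleton.mp h; exact ⟨hi, by omega⟩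
    · simp at h
  · exact ⟨hC j i hj hi h1 h2 c h, (hF.lt j i h1 h2 c h).2⟩

theorem Rel.map (h : Rel R S y) (hF : R.Fmt) (hC : Cl R S) (f : G →* H) {y' : ℕ → H}
    (e : ∀ c, S c → c < R.n1 → f (y c) = y' c) : Rel R S y' := fun j i hj hi h1 h2 => by
  rw [← e j hj h2, ← e i hi (by omega), ← map_mul, h j i hj hi h1 h2, map_ev]
  exact ev_congr _ fun c hc => e c (mem_rhs hF hC hj hi h1 h2 c hc).1 (mem_rhs hF hC hj hi h1 h2 c hc).2

theorem Rel.of_map {y' : ℕ → H} (h : Rel R S y') (hF : R.Fmt) (hC : Cl R S) (f : G →* H) (hf : Function.Injective f)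
    (e : ∀ c, S c → c < R.n1 → f (y c) = y' c) : Rel R S y := fun j i hj hi h1 h2 => hf <| by
  rw [map_mul, e j hj h2, e i hi (by omega), h j i hj hi h1 h2, map_ev]
  exact ev_congr _ fun c hc => (e c (mem_rhs hF hC hj hi h1 h2 c hc).1 (mem_rhs hF hC hj hi h1 h2 c hc).2).symm

theorem Rel.prod {y' : ℕ → H} (h : Rel R S y) (h' : Rel R S y') : Rel R S fun c => (y c, y' c) :=
  fun j i hj hi h1 h2 => Prod.ext ((h j i hj hi h1 h2).trans (map_ev (fun c => (y c, y' c)) (MonoidHom.fst G H) _).symm)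
    ((h' j i hj hi h1 h2).trans (map_ev (fun c => (y c, y' c)) (MonoidHom.snd G H) _).symm)

theorem Rel.mono (h : Rel R S y) {S' : ℕ → Prop} (e : ∀ c, S' c → S c) : Rel R S' y :=
  fun j i hj hi => h j i (e j hj) (e i hi)

theorem Strict.mono {n0 n : ℕ} (h : Strict S y n0 n) {S' : ℕ → Prop} (e : ∀ c, S' c → S c) : Strict S' y n0 n :=
  fun k hk hs hm => h k hk (e k hs) (C_le (fun c a b d => mem_C (e c a) b d) hm)

theorem Rel.comm (h : Rel R S y) {j i : ℕ} (hj : S j) (hi : S i) (h1 : i < j) (h2 : j < R.n1) :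
    y j * y i = y i * evN y R.b (R.wd j i) := by
  rw [h j i hj hi h1.le h2, Tb.rhs, if_pos h1]; exact ev_cons _ _ _

theorem Rel.sq (h : Rel R S y) {i : ℕ} (hi : S i) (h2 : i < R.n1) : y i * y i = evN y R.b (R.wd i i) := by
  rw [h i i hi hi le_rfl h2, Tb.rhs, if_neg (lt_irrefl i)]; rfl

theorem wd_mem (hF : R.Fmt) (hC : Cl R S) {j i : ℕ} (hj : S j) (hi : S i) (h1 : i ≤ j) (h2 : j < R.n1) :
    evN y R.b (R.wd j i) ∈ C S y R.n1 (i + 1) :=
  ev_mem _ fun c hc => mem_C (hC j i hj hi h1 h2 c hc) (hF.lt j i h1 h2 c hc).1 (hF.lt j i h1 h2 c hc).2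

theorem Rel.step (h : Rel R S y) (hF : R.Fmt) (hC : Cl R S) {k : ℕ} {g : G} (hg : g ∈ C S y R.n1 k) :
    g ∈ C S y R.n1 (k + 1) ∨ (S k ∧ k < R.n1 ∧ (y k)⁻¹ * g ∈ C S y R.n1 (k + 1)) := by
  by_cases hk : S k ∧ k < R.n1
  swap
  · exact Or.inl (C_le (fun c a b d => mem_C a (lt_of_le_of_ne b (by rintro rfl; exact hk ⟨a, d⟩)) d) hg)
  set A := C S y R.n1 (k + 1)
  have h1 : ∀ a ∈ A, (y k)⁻¹ * a * y k ∈ A := fun a ha => by
    have : A ≤ A.comap (MulAut.conj (y k)⁻¹).toMonoidHom := C_le fun c a b d => by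
      have := wd_mem (y := y) hF hC a hk.1 (Nat.le_of_succ_le b) d
      rw [← inv_mul_cancel_left (y k) (evN _ _ _), ← h.comm a hk.1 b d] at this
      simpa [mul_assoc] using this
    simpa using this ha
  have h2 : y k * y k ∈ A := h.sq hk.1 hk.2 ▸ wd_mem hF hC hk.1 hk.1 le_rfl hk.2
  let B : Subgroup G :=
    { carrier := {g | g ∈ A ∨ (y k)⁻¹ * g ∈ A}
      one_mem' := Or.inl A.one_mem
      mul_mem' := by
        rintro a b (ha | ha) (hb | hb)
        · exact Or.inl (mul_mem ha hb)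
        · exact Or.inr (by simpa [mul_assoc] using mul_mem (h1 a ha) hb)
        · exact Or.inr (by simpa [mul_assoc] using mul_mem ha hb)
        · exact Or.inl (by simpa [mul_assoc] using mul_mem (mul_mem h2 (h1 _ ha)) hb)
      inv_mem' := by
        rintro a (ha | ha)
        · exact Or.inl (inv_mem ha)
        · exact Or.inr (by simpa [mul_assoc] using mul_mem (h1 _ (inv_mem ha)) (inv_mem h2)) }
  have : C S y R.n1 k ≤ B := C_le fun c a b d => by
    rcases b.eq_or_lt with rfl | b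
    exacts [Or.inr (by simp [A.one_mem]), Or.inl (mem_C a b d)]
  exact (this hg).imp id fun h => ⟨hk.1, hk.2, h⟩

/-- An element killed by a homomorphism under which the series stays strict below `n0` lies in the term `n0`. -/
theorem Rel.mem_of_ker (h : Rel R S y) (hF : R.Fmt) (hC : Cl R S) (f : G →* H) {y' : ℕ → H}
    (e : ∀ c, S c → c < R.n1 → f (y c) = y' c) {n0 : ℕ} (hs : Strict S y' n0 R.n1) {g : G}
    (hg : g ∈ C S y R.n1 0) (h1 : f g = 1) : g ∈ C S y R.n1 n0 := by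
  suffices ∀ k ≤ n0, g ∈ C S y R.n1 k from this n0 le_rfl
  intro k hk
  induction k with
  | zero => exact hg
  | succ k ih =>
    refine (h.step hF hC (ih (by omega))).elim id fun ⟨a, b, c⟩ => absurd ?_ (hs k hk a)
    have := inv_mem (mem_map_of_mem f c)
    rwa [map_C f e, map_mul, h1, mul_one, map_inv, inv_inv, e k a b] at this

theorem Rel.exists_hom (h : Rel R S y) (hF : R.Fmt) (hC : Cl R S) (hs : Strict S y R.n1 R.n1)
    (hg : C S y R.n1 0 = ⊤) {y' : ℕ → H} (h' : Rel R S y') : ∃ φ : G →* H, ∀ c, S c → c < R.n1 → φ (y c) = y' c := by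
  set Δ := C S (fun c => (y c, y' c)) R.n1 0 with hΔ
  obtain ⟨φ, hφ⟩ := Subgroup.exists_eq_graph (G := Δ) ⟨(injective_iff_map_eq_one
    ((MonoidHom.fst G H).comp Δ.subtype)).mpr fun a ha => by
      have := (h.prod h').mem_of_ker hF hC (MonoidHom.fst G H) (fun _ _ _ => rfl) hs a.2 ha
      rw [C_top] at this
      exact Subtype.ext this, fun g => by
      have : g ∈ Δ.map (MonoidHom.fst G H) := by rw [map_C _ (y' := y) fun _ _ _ => rfl, hg]; trivial
      obtain ⟨a, ha, e⟩ := this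
      exact ⟨⟨a, ha⟩, e⟩⟩
  exact ⟨φ, fun c a b => (MonoidHom.mem_graph (f := φ) (x := (y c, y' c))).mp (hφ ▸ mem_C a (Nat.zero_le c) b)⟩

theorem Rel.card_le [Finite G] (h : Rel R S y) (hF : R.Fmt) (hC : Cl R S) (m k : ℕ) (hk : k + m = R.n1) :
    Nat.card (C S y R.n1 k) ≤ 2 ^ m := by
  induction m generalizing k with
  | zero => rw [show k = R.n1 from hk, C_top]; simp
  | succ m ih =>
    have h1 := ih (k + 1) (by omega)
    let F : Bool × C S y R.n1 (k + 1) → G := fun a => if a.1 then y k * a.2 else a.2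
    have h2 : (C S y R.n1 k : Set G) ⊆ Set.range F := fun g hg => by
      rcases h.step hF hC hg with a | ⟨-, -, a⟩
      exacts [⟨(false, ⟨g, a⟩), rfl⟩, ⟨(true, ⟨_, a⟩), by simp [F]⟩]
    refine (Nat.card_mono (Set.toFinite _) h2).trans ((Finite.card_range_le F).trans ?_)
    rw [Nat.card_prod, Nat.card_eq_fintype_card, Fintype.card_bool, pow_succ']
    omega

theorem Strict.le_card [Finite G] {n : ℕ} (h : Strict S y n n) (m k : ℕ) (hk : k + m = n)
    (hS : ∀ c, k ≤ c → c < n → S c) : 2 ^ m ≤ Nat.card (C S y n k) := by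
  induction m generalizing k with
  | zero => exact Nat.card_pos
  | succ m ih =>
    have h1 := ih (k + 1) (by omega) fun c a => hS c (by omega)
    have h2 : C S y n (k + 1) ≤ C S y n k := C_anti (Nat.le_succ k)
    obtain ⟨d, hd⟩ := card_dvd_of_le h2
    have h3 : d ≠ 1 := by
      rintro rfl
      have := eq_of_le_of_card_ge h2 (by omega)
      exact h k (by omega) (hS k le_rfl (by omega)) (this ▸ mem_C (hS k le_rfl (by omega)) le_rfl (by omega))
    have h4 : d ≠ 0 := by rintro rfl; exact absurd hd (Nat.card_pos).ne'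
    rw [hd, pow_succ]
    exact Nat.mul_le_mul h1 (by omega)

end rel

end Cfsg.Agent.PcX
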