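import Cfsg.Agent.Lib.Mult.Cov

/-! Stem extensions by corestriction from a subgroup of odd index whose commutator pairing is invariant under
fusion. -/

set_option autoImplicit false

namespace Cfsg.Agent.PcX

open Cfsg.Agent.Mult Subgroup Finset
open scoped commutatorElement

universe u

theorem sum_eq_zero_of_orbits {Ω A : Type*} [Finite Ω] [AddCommGroup A] {π : Ω → Ω} (hπ : Function.Injective π)
    (ε : Ω → A) (s : Finset Ω) (hs : ∀ ω ∈ s, π ω ∈ s)
    (h : ∀ ω ∈ s, ∀ k, π^[k] ω = ω → ∑ i ∈ range k, ε (π^[i] ω) = 0) : ∑ ω ∈ s, ε ω = 0 := by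
  classical
  induction s using Finset.strongInduction with
  | H s ih =>
    rcases s.eq_empty_or_nonempty with rfl | ⟨ω, hω⟩
    · rfl
    have hp := Function.minimalPeriod_pos_of_mem_periodicPts (hπ.mem_periodicPts ω)
    set k := Function.minimalPeriod π ω
    let O := (range k).image fun i => π^[i] ω
    have h1 : ∀ i, π^[i] ω ∈ O := fun i =>
      mem_image.mpr ⟨i % k, mem_range.mpr (Nat.mod_lt _ hp), Function.iterate_mod_minimalPeriod_eq⟩
    have h2 : O ⊆ s := fun a ha => by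
      obtain ⟨i, -, rfl⟩ := mem_image.mp ha
      induction i with
      | zero => exact hω
      | succ i ih => rw [Function.iterate_succ_apply']; exact hs _ (ih (h1 i))
    rw [← sum_sdiff h2, ih _ (sdiff_ssubset h2 ⟨ω, h1 0⟩) (fun a ha => ?_) fun a ha => h a (mem_sdiff.mp ha).1,
      zero_add, sum_image fun i hi j hj => Function.iterate_injOn_Iio_minimalPeriod (mem_range.mp hi) (mem_range.mp hj)]
    · exact h ω hω k (Function.iterate_minimalPeriod)
    · refine mem_sdiff.mpr ⟨hs a (mem_sdiff.mp ha).1, fun e => (mem_sdiff.mp ha).2 ?_⟩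
      obtain ⟨i, -, e⟩ := mem_image.mp e
      have : π^[i + (k - 1)] ω = a := hπ (by
        rw [← Function.iterate_succ_apply' π, show (i + (k - 1)).succ = i + k by omega, Function.iterate_add_apply,
          Function.iterate_minimalPeriod, e])
      exact this ▸ h1 _

variable {Γ : Type u} [Group Γ] {P : Type*} [Group P]

/-- The commutator pairing is invariant under conjugation by `g`. -/
def Inv (p : P →* Γ) (g : Γ) : Prop :=
  ∀ X Y X' Y' : P, p X' = g * p X * g⁻¹ → p Y' = g * p Y * g⁻¹ → Commute (p X) (p Y) → ⁅X', Y'⁆ = ⁅X, Y⁆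

theorem ex_of_inv [Finite Γ] (p : P →* Γ) {A : Type} [AddCommGroup A] [Finite A] {ι : A → P} (hι : Cen ι)
    (inj : Function.Injective ι) (hker : ∀ X, p X = 1 ↔ ∃ a, ι a = X) (hodd : Odd p.range.index)
    (h2 : ∀ a : A, a + a = 0) (inv : ∀ g, Inv p g) {X₀ : P} (hx : p X₀ * p X₀ = 1)
    (hgen : ∀ K : AddSubgroup A, (∀ Y a, ⁅X₀, Y⁆ = ι a → a ∈ K) → K = ⊤) : EX Γ (Multiplicative A) := by
  classical
  set U := p.range
  set x := p X₀ with hx0
  let _ : Fintype (Γ ⧸ U) := Fintype.ofFinite _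
  let _ : LinearOrder (Γ ⧸ U) := LinearOrder.lift' _ (Fintype.equivFin _).injective
  have hxx : ∀ ω : Γ ⧸ U, x • x • ω = ω := fun ω => by rw [← mul_smul, hx, one_smul]
  let t : Γ ⧸ U → Γ := fun ω => if x • ω < ω then x * (x • ω).out else ω.out
  have ht0 : ∀ ω, (t ω : Γ ⧸ U) = ω := fun ω => by
    simp only [t]
    split_ifs
    · rw [← smul_eq_mul, ← MulAction.Quotient.smul_mk, QuotientGroup.out_eq', hxx]
    · exact QuotientGroup.out_eq' ω
  have ht1 : ∀ ω, x • ω ≠ ω → t (x • ω) = x * t ω := fun ω h => by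
    simp only [t, hxx]
    rcases h.lt_or_gt with h | h
    · rw [if_neg h.not_gt, if_pos h, ← mul_assoc, hx, one_mul]
    · rw [if_pos h, if_neg h.not_gt]
  have ht : ∀ (g : Γ) ω, (t (g • ω))⁻¹ * g * t ω ∈ U := fun g ω => by
    rw [mul_assoc, ← QuotientGroup.eq, ht0, ← smul_eq_mul, ← MulAction.Quotient.smul_mk, ht0]
  let s : Γ → P := fun g => if g = 1 then 1 else Function.invFun p g
  have hs : ∀ g ∈ U, p (s g) = g := fun g hg => by
    simp only [s]
    split_ifs with h
    · rw [h, map_one]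
    · exact Function.invFun_eq hg
  have hs1 : s 1 = 1 := if_pos rfl
  let c : Γ → Γ → A := fun g h => Function.invFun ι ((s (g * h))⁻¹ * (s g * s h))
  have hc : ∀ g ∈ U, ∀ h ∈ U, s g * s h = s (g * h) * ι (c g h) := fun g hg h hh => by
    rw [Function.invFun_eq ((hker _).mp (by simp [hs g hg, hs h hh, hs _ (mul_mem hg hh)])), mul_inv_cancel_left]
  have c1 : ∀ g ∈ U, c 1 g = 0 := fun g hg => inj (by simpa [hs1, hι.zero] using (hc 1 (one_mem _) g hg).symm)
  have c2 : ∀ g ∈ U, c g 1 = 0 := fun g hg => inj (by simpa [hs1, hι.zero] using (hc g hg 1 (one_mem _)).symm)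
  let Co := cores U t ht c c1 c2 fun a ha b hb d hd => inj (mul_left_cancel (a := s (a * b * d)) (by
    rw [add_comm, hι.add, ← mul_assoc, ← hc _ (mul_mem ha hb) d hd, mul_assoc, ← hι.comm, ← mul_assoc, ← hc a ha b hb,
      add_comm, hι.add, ← mul_assoc, mul_assoc a, ← hc a ha _ (mul_mem hb hd), mul_assoc, mul_assoc, ← hc b hb d hd]))
  refine ⟨Co.Ext, inferInstance, inferInstance, Co.proj, Co.isStem (hgen _ fun Y b hb => ?_), ⟨Co.kerEquiv⟩⟩
  set y := p Y with hy0
  have hxy : Commute x y := by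
    rw [← commutatorElement_eq_one_iff_commute, ← map_commutatorElement, hb]; exact (hker _).mpr ⟨b, rfl⟩
  refine AddSubgroup.subset_closure ⟨x, y, hxy, ?_⟩
  let a : Γ → Γ ⧸ U → Γ := fun g ω => (t (g • ω))⁻¹ * g * t ω
  let δ : Γ ⧸ U → A := fun ω => c (a x (y • ω)) (a y ω) - c (a y (x • ω)) (a x ω)
  have ha : ∀ g ω, a g ω ∈ U := ht
  have hsm : ∀ ω : Γ ⧸ U, x • y • ω = y • x • ω := fun ω => by rw [← mul_smul, hxy.eq, mul_smul]
  have k1 : ∀ ω, x • ω = ω → s (a x (y • ω)) * s (a y ω) = s (a y ω) * s (a x ω) * ι (δ ω) := fun ω h => by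
    have e : a x (y • ω) * a y ω = a y ω * a x ω := by
      simp only [a, hsm, h, mul_assoc, mul_inv_cancel_left]
      rw [← mul_assoc x, hxy.eq, mul_assoc]
    rw [hc _ (ha _ _) _ (ha _ _), hc _ (ha _ _) _ (ha _ _), mul_assoc (s _), ← hι.add, e]
    simp only [δ, h, add_sub_cancel]
  have k2 : ∀ ω, x • ω = ω → ∀ k, x • (y • ·)^[k] ω = (y • ·)^[k] ω ∧ ∃ Z, p Z = (t ((y • ·)^[k] ω))⁻¹ * y ^ k * t ω ∧
      s (a x ((y • ·)^[k] ω)) * Z = Z * s (a x ω) * ι (∑ i ∈ range k, δ ((y • ·)^[i] ω)) := fun ω h k => by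
    induction k with
    | zero => exact ⟨h, 1, by simp, by simp [hι.zero]⟩
    | succ k ih =>
      obtain ⟨e1, Z, e2, e3⟩ := ih
      rw [Function.iterate_succ_apply']
      refine ⟨by rw [hsm, e1], s (a y ((y • ·)^[k] ω)) * Z, ?_, ?_⟩
      · rw [map_mul, hs _ (ht _ _), e2, pow_succ']; simp only [mul_assoc, mul_inv_cancel_left]
      · rw [← mul_assoc, k1 _ e1, sum_range_succ, hι.add, mul_assoc, hι.comm, ← mul_assoc, mul_assoc _ _ Z, e3]
        simp only [mul_assoc]
  have k3 : ∀ k : ℕ, ⁅X₀, Y ^ k⁆ = ι (k • b) := fun k => by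
    induction k with
    | zero => simp [hι.zero]
    | succ k ih => rw [pow_succ, commutator_mul_right (hb ▸ (hι.comm b _).symm), ih, hb, succ_nsmul, hι.add]
  have k4 := sum_eq_zero_of_orbits (MulAction.injective y) (fun ω => δ ω - b) (univ.filter fun ω => x • ω = ω)
    (fun ω h => by simpa using (k2 ω (mem_filter.mp h).2 1).1) fun ω h k hk => by
      have h := (mem_filter.mp h).2
      obtain ⟨-, Z, e2, e3⟩ := k2 ω h k
      rw [hk] at e2 e3
      have := inv (t ω)⁻¹ X₀ (Y ^ k) (s (a x ω)) Z (by rw [hs _ (ht _ _), h, inv_inv]) (by rw [e2, map_pow, inv_inv])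
        (by rw [map_pow]; exact hxy.pow_right k)
      rw [k3, commutatorElement_def, e3, ← hι.comm, mul_assoc, mul_assoc, ← mul_inv_rev, mul_inv_cancel, mul_one] at this
      rw [sum_sub_distrib, inj this]
      simp
  have k5 : ∑ ω ∈ univ.filter fun ω => ¬ x • ω = ω, (δ ω - b) = 0 := by
    rw [sum_congr rfl (g := fun _ => -b) fun ω h => ?_]
    · exact sum_involution (fun ω _ => x • ω) (fun _ _ => by rw [← neg_add, h2, neg_zero])
        (fun ω h _ => (mem_filter.mp h).2) (fun ω h => by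
          rw [mem_filter, hxx]; exact ⟨mem_univ _, fun e => (mem_filter.mp h).2 e.symm⟩) fun ω _ => hxx ω
    · have h := (mem_filter.mp h).2
      have e : ∀ ω, x • ω ≠ ω → a x ω = 1 := fun ω h => by simp [a, ht1 ω h, mul_assoc]
      simp only [δ]
      rw [e ω h, e (y • ω) (by rw [hsm]; exact fun e => h (MulAction.injective y e)), c1 _ (ht _ _), c2 _ (ht _ _)]
      simp
  have k6 := sum_filter_add_sum_filter_not univ (fun ω : Γ ⧸ U => x • ω = ω) fun ω => δ ω - b
  rw [k4, k5, add_zero, sum_sub_distrib, sum_const, card_univ, ← Nat.card_eq_fintype_card, eq_comm, sub_eq_zero] at k6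
  obtain ⟨m, hm⟩ := hodd
  rw [← Subgroup.index, hm, add_smul, one_smul, mul_smul, two_smul, h2, zero_add] at k6
  rw [← k6, sum_sub_distrib]
  rfl

end Cfsg.Agent.PcX
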